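import Cfsg.Agent.H104.IrrPOmega
import Cfsg.Agent.H104.IrrSp
import Cfsg.Agent.H104.IrrSU
import Cfsg.Agent.H104.IrrSL
import Cfsg.Prelude.Def_LieTypeChar

/-!
# `AbIrr` and `NormOm`, `p` odd, cross characteristic: the classical families in the form `Is...Char r G`

* `psp_row`, `odd_row`, `plus_row`, `minus_row` : no further condition;
* `psl_row` : from the split case `p ∣ q - 1`; `psu_row` : from the split case `p ∣ q + 1`.
-/

set_option autoImplicit false

namespace Cfsg.Agent.H104.ClassRow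

open H795 ClosedSet

universe u

variable {r p : ℕ} [hp : Fact p.Prime] {G : Type u} [Group G]

theorem cast_ne {F : Type} [Field F] [Fintype F] [CharP F r] (hpr : p ≠ r) : (p : F) ≠ 0 := by
  have hr : r.Prime := CharP.char_is_prime F r
  intro h
  rw [CharP.cast_eq_zero_iff F r p] at h
  exact hpr ((Nat.prime_dvd_prime_iff_eq hr hp.out).1 h).symm

omit hp in
theorem transport {H : Type} [Group H] [Finite H] (e : G ≃* H) (h : AbIrr p H ∧ NormOm p H) :
    AbIrr p G ∧ NormOm p G := by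
  have : Finite G := Finite.of_equiv H e.symm.toEquiv
  exact ⟨h.1.of_mulEquiv e.symm, NormOm.of_mulEquiv e.symm h.2⟩

theorem psp_row (hp2 : p ≠ 2) (hpr : p ≠ r) (h : Cfsg.IsPSpChar r G) : AbIrr p G ∧ NormOm p G := by
  obtain ⟨F, _, _, _, m, hm, -, ⟨e⟩⟩ := h
  exact transport e (IrrSp.psp_main hp2 (cast_ne hpr) (by omega))

theorem odd_row (hp2 : p ≠ 2) (hpr : p ≠ r) (h : Cfsg.IsPOmegaOddChar r G) : AbIrr p G ∧ NormOm p G := by
  obtain ⟨F, _, _, _, m, hm, hodd, ⟨e⟩⟩ := h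
  refine transport e (IrrPOmega.odd_main hm ?_ hp2 (cast_ne hpr))
  have hne : ringChar F ≠ 2 := by
    intro h
    have h2 := (FiniteField.even_card_iff_char_two (F := F)).1 h
    rw [Nat.odd_iff] at hodd
    omega
  exact Ring.two_ne_zero hne

theorem plus_row (hp2 : p ≠ 2) (hpr : p ≠ r) (h : Cfsg.IsPOmegaPlusChar r G) : AbIrr p G ∧ NormOm p G := by
  obtain ⟨F, _, _, _, m, hm, ⟨e⟩⟩ := h
  exact transport e (IrrPOmega.plus_main hm hp2 (cast_ne hpr))

theorem minus_row (hp2 : p ≠ 2) (hpr : p ≠ r) (h : Cfsg.IsPOmegaMinusChar r G) : AbIrr p G ∧ NormOm p G := by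
  obtain ⟨F, _, _, _, m, a, b, hm, hab, ⟨e⟩⟩ := h
  exact transport e (IrrPOmega.minus_main hm a b hab hp2 (cast_ne hpr))

/-- `PSL`, from the split case. -/
theorem psl_row (hsplit : ∀ (F : Type) [Field F] [Fintype F] (n : ℕ), (p : F) ≠ 0 → 2 ≤ n →
      (n = 2 → 4 ≤ Fintype.card F) → p ∣ Fintype.card F - 1 →
      AbIrr p (Matrix.ProjectiveSpecialLinearGroup (Fin n) F) ∧ NormOm p (Matrix.ProjectiveSpecialLinearGroup (Fin n) F))
    (hpr : p ≠ r) (h : Cfsg.IsPSLChar r G) : AbIrr p G ∧ NormOm p G := by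
  obtain ⟨F, _, _, _, n, hn, hn2, ⟨e⟩⟩ := h
  by_cases hq : p ∣ Fintype.card F - 1
  · exact transport e (hsplit F n (cast_ne hpr) hn hn2 hq)
  · exact transport e (IrrSL.psl_main (cast_ne hpr) hq (by omega))

/-- `PSU`, from the split case. -/
theorem psu_row (hsplit : ∀ (F : Type) [Field F] [Fintype F] (n q : ℕ), (p : F) ≠ 0 → Fintype.card F = q ^ 2 → 3 ≤ n →
      ¬ (n = 3 ∧ q = 2) → p ∣ q + 1 → AbIrr p (Cfsg.PSU n F q) ∧ NormOm p (Cfsg.PSU n F q))
    (hpr : p ≠ r) (h : Cfsg.IsPSUChar r G) : AbIrr p G ∧ NormOm p G := by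
  obtain ⟨F, _, _, _, n, q, hF, hn, hn2, ⟨e⟩⟩ := h
  by_cases hq : p ∣ q + 1
  · exact transport e (hsplit F n q (cast_ne hpr) hF hn hn2 hq)
  · exact transport e (IrrSU.psu_main hF (cast_ne hpr) hq hn)

end Cfsg.Agent.H104.ClassRow
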